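import Cfsg.Agent.H724.QA.TOne
import Cfsg.Agent.H152.QA.PSit
import Cfsg.Agent.H759.QA.Chars

/-!
# S4979, layer (A), tools [A-T1], version 2 : faithful modules (helper724)

`PSit.card_le`, `PSit.index_normalizer`, `PSit.exists_lift`, `PSit.exists_lift_elt`, `PSit.card_centralizer`,
`minDeg_of_cover`, `PSit.exists_dim`.
-/

set_option autoImplicit false

open Cfsg

namespace Cfsg.Agent.H724.QA

open Cfsg.Agent.H80.Fpf Cfsg.Agent.H152.QA

section
variable {p q : ℕ} {G V S : Type} [Group G] [Finite G] [AddCommGroup V] [Finite V] [DistribMulAction G V]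
  [Group S] [Finite S] [IsSimpleGroup S] {ψ : G →* S}

/-- every vector is fixed by a conjugate of the `p`-subgroup `X`: `|V| ≤ |G : N_G(X)| |C_V(X)|` -/
theorem PSit.card_le (h : PSit p q G V) (X : Subgroup G) (hX : IsPGroup p X) :
    Nat.card V ≤ (Subgroup.normalizer (X : Set G)).index * Nat.card (fixV G V X) := by
  classical
  have hp : Fact p.Prime := ⟨h.hp⟩
  have key : ∀ v : V, ∃ g : G, g • v ∈ fixV G V X := by
    intro v
    have h1 : ¬ p ∣ Nat.card (MulAction.orbit G v) := by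
      rw [Nat.card_congr (MulAction.orbitEquivQuotientStabilizer G v)]
      exact h.P1 v
    obtain ⟨w, hw⟩ := hX.nonempty_fixed_point_of_prime_not_dvd_card (MulAction.orbit G v) h1
    obtain ⟨g, hg⟩ := w.2
    refine ⟨g, ?_⟩
    rw [mem_fixV]
    intro x hx
    have h2 := congrArg Subtype.val (MulAction.mem_fixedPoints.1 hw ⟨x, hx⟩)
    have h3 : x • (w : V) = (w : V) := h2
    rw [← hg] at h3
    exact h3
  let f : (G ⧸ Subgroup.normalizer (X : Set G)) × (fixV G V X) → V := fun y => y.1.out • (y.2 : V)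
  have hf : Function.Surjective f := by
    intro v
    obtain ⟨g, hg⟩ := key v
    set c : G ⧸ Subgroup.normalizer (X : Set G) := QuotientGroup.mk g⁻¹ with hc
    have h1 : c.out⁻¹ * g⁻¹ ∈ Subgroup.normalizer (X : Set G) := by
      rw [← QuotientGroup.eq, QuotientGroup.out_eq']
    refine ⟨(c, ⟨(c.out⁻¹ * g⁻¹) • (g • v), smul_mem_fixV h1 hg⟩), ?_⟩
    change c.out • ((c.out⁻¹ * g⁻¹) • (g • v)) = v
    rw [smul_smul, smul_smul]
    have h2 : c.out * (c.out⁻¹ * g⁻¹) * g = 1 := by group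
    rw [h2, one_smul]
  have h1 := Nat.card_le_card_of_surjective f hf
  rw [Nat.card_prod] at h1
  exact h1

omit [Finite S] [IsSimpleGroup S] in
theorem PSit.not_dvd_ker (h : PSit p q G V) (hψ : IsCover ψ) : ¬ p ∣ Nat.card ψ.ker :=
  fun h1 => h.pZ (h1.trans (Subgroup.card_dvd_of_le hψ.central))

/-- conjugation modulo the kernel: `p`-elements with the same image up to conjugation -/
theorem eq_of_map_eq (hp : p.Prime) (hk : ¬ p ∣ Nat.card ψ.ker) (hψ : IsCover ψ) {x y : G}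
    (hx : ∃ a : ℕ, x ^ p ^ a = 1) (hy : ∃ b : ℕ, y ^ p ^ b = 1) (hxy : ψ x = ψ y) : x = y := by
  obtain ⟨a, ha⟩ := hx
  obtain ⟨b, hb⟩ := hy
  have hz : x⁻¹ * y ∈ ψ.ker := by
    rw [MonoidHom.mem_ker, map_mul, map_inv, hxy, inv_mul_cancel]
  set z := x⁻¹ * y with hzdef
  have hzc := Subgroup.mem_center_iff.1 (hψ.central hz)
  have h3 : x * z = y := by rw [hzdef, mul_inv_cancel_left]
  have h4 : (x * z) ^ p ^ (a + b) = 1 := by
    rw [h3, add_comm, pow_add, pow_mul, hb, one_pow]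
  have h5 : z ^ p ^ (a + b) = 1 := by
    rw [(show Commute x z from hzc x).mul_pow, pow_add, pow_mul, ha, one_pow, one_mul, ← pow_add] at h4
    exact h4
  have h6 := eq_one_of_ker hp hk hz h5
  rw [h6, mul_one] at h3
  exact h3

/-- the index of the normalizer is that of the image in `S` -/
theorem PSit.index_normalizer (h : PSit p q G V) (hψ : IsCover ψ) (X : Subgroup G) (hX : IsPGroup p X) :
    (Subgroup.normalizer (X : Set G)).index = (Subgroup.normalizer ((X.map ψ : Subgroup S) : Set S)).index := by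
  classical
  have hk := PSit.not_dvd_ker h hψ
  rw [← Subgroup.index_comap_of_surjective _ hψ.surj]
  congr 1
  have key : ∀ g ∈ (Subgroup.normalizer ((X.map ψ : Subgroup S) : Set S)).comap ψ, ∀ x ∈ X, g * x * g⁻¹ ∈ X := by
    intro g hg x hx
    rw [Subgroup.mem_comap] at hg
    have h1 : ψ x ∈ X.map ψ := Subgroup.mem_map_of_mem ψ hx
    obtain ⟨x', hx', hxx⟩ := (Subgroup.mem_normalizer_iff.1 hg (ψ x)).1 h1
    obtain ⟨a, ha⟩ := hX ⟨x, hx⟩
    obtain ⟨b, hb⟩ := hX ⟨x', hx'⟩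
    have ha' : x ^ p ^ a = 1 := congrArg Subtype.val ha
    have hb' : x' ^ p ^ b = 1 := congrArg Subtype.val hb
    have h2 : g * x * g⁻¹ = x' := eq_of_map_eq h.hp hk hψ
      ⟨a, by rw [conj_pow, ha', mul_one, mul_inv_cancel]⟩ ⟨b, hb'⟩ (by rw [hxx, map_mul, map_mul, map_inv])
    rw [h2]
    exact hx'
  ext g
  constructor
  · intro hg
    rw [Subgroup.mem_comap, Subgroup.mem_normalizer_iff]
    intro s
    constructor
    · rintro ⟨x, hx, rfl⟩
      exact ⟨g * x * g⁻¹, (Subgroup.mem_normalizer_iff.1 hg x).1 hx, by simp⟩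
    · rintro ⟨x, hx, hxs⟩
      refine ⟨g⁻¹ * x * g, ?_, ?_⟩
      · have h2 := (Subgroup.mem_normalizer_iff.1 (inv_mem hg) x).1 hx
        rwa [inv_inv] at h2
      · rw [map_mul, map_mul, map_inv, hxs]; group
  · intro hg
    rw [Subgroup.mem_normalizer_iff]
    intro x
    refine ⟨fun hx => key g hg x hx, fun hx => ?_⟩
    have h2 := key g⁻¹ (inv_mem hg) _ hx
    have h3 : g⁻¹ * (g * x * g⁻¹) * g⁻¹⁻¹ = x := by group
    rwa [h3] at h2

/-- `p`-subgroups of `S` lift -/
theorem PSit.exists_lift (h : PSit p q G V) (hψ : IsCover ψ) (Y : Subgroup S) (hY : IsPGroup p Y) :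
    ∃ X : Subgroup G, IsPGroup p X ∧ X.map ψ = Y ∧ Nat.card X = Nat.card Y := by
  classical
  have hp : Fact p.Prime := ⟨h.hp⟩
  have hk := PSit.not_dvd_ker h hψ
  let f : ↥(Y.comap ψ) →* ↥Y := ψ.subgroupComap Y
  have hf : Function.Surjective f := ψ.subgroupComap_surjective_of_surjective Y hψ.surj
  obtain ⟨P⟩ : Nonempty (Sylow p ↥(Y.comap ψ)) := inferInstance
  let Q := P.mapSurjective hf
  have hQ : (Q : Subgroup ↥Y) = ⊤ := by
    have h1 : IsPGroup p (⊤ : Subgroup ↥Y) := hY.of_equiv Subgroup.topEquiv.symm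
    exact (Q.3 h1 le_top).symm
  have hX : IsPGroup p ((P : Subgroup ↥(Y.comap ψ)).map (Y.comap ψ).subtype) := P.2.map _
  have hmap : ((P : Subgroup ↥(Y.comap ψ)).map (Y.comap ψ).subtype).map ψ = Y := by
    have h1 : ((P : Subgroup ↥(Y.comap ψ)).map f).map Y.subtype = Y := by
      have h2 : (Q : Subgroup ↥Y) = (P : Subgroup ↥(Y.comap ψ)).map f := rfl
      rw [← h2, hQ, ← MonoidHom.range_eq_map, Subgroup.range_subtype]
    rw [Subgroup.map_map] at h1 ⊢
    exact h1
  refine ⟨_, hX, hmap, ?_⟩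
  set X := (P : Subgroup ↥(Y.comap ψ)).map (Y.comap ψ).subtype with hXdef
  have hinj : Function.Injective (ψ.comp X.subtype) := by
    rw [injective_iff_map_eq_one]
    intro x hx
    obtain ⟨a, ha⟩ := hX x
    exact Subtype.ext (eq_one_of_ker h.hp hk (z := (x : G)) hx (congrArg Subtype.val ha))
  have hr : (ψ.comp X.subtype).range = Y := by
    rw [MonoidHom.range_comp, Subgroup.range_subtype, hmap]
  rw [← hr]
  exact Nat.card_congr (MonoidHom.ofInjective hinj).toEquiv

/-- `p`-elements of `S` lift -/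
theorem PSit.exists_lift_elt (h : PSit p q G V) (hψ : IsCover ψ) (y : S) (hy : ∃ k, orderOf y = p ^ k) :
    ∃ x : G, ψ x = y ∧ orderOf x = orderOf y := by
  obtain ⟨k, hk⟩ := hy
  have hY : IsPGroup p (Subgroup.zpowers y) := IsPGroup.of_card (n := k) (by rw [Nat.card_zpowers, hk])
  obtain ⟨X, hX, hmap, hcard⟩ := PSit.exists_lift h hψ _ hY
  have h1 : y ∈ X.map ψ := by
    rw [hmap]
    exact Subgroup.mem_zpowers y
  obtain ⟨x, hx, hxy⟩ := h1
  refine ⟨x, hxy, ?_⟩
  have hk' := PSit.not_dvd_ker h hψ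
  obtain ⟨a, ha⟩ := hX ⟨x, hx⟩
  have ha' : x ^ p ^ a = 1 := congrArg Subtype.val ha
  apply Nat.dvd_antisymm
  · rw [orderOf_dvd_iff_pow_eq_one]
    refine eq_of_map_eq h.hp hk' hψ ⟨a, by rw [← pow_mul, mul_comm, pow_mul, ha', one_pow]⟩ ⟨0, one_pow _⟩ ?_
    rw [map_pow, hxy, pow_orderOf_eq_one, map_one]
  · rw [← hxy]
    exact orderOf_map_dvd ψ x

/-- the centralizer of a `p`-element: `|C_G(x)| = |Z(G)| |C_S(ψ x)|` -/
theorem PSit.card_centralizer (h : PSit p q G V) (hψ : IsCover ψ) (x : G) (hx : ∃ k, orderOf x = p ^ k) :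
    Nat.card (Subgroup.centralizer ({x} : Set G)) =
      Nat.card (Subgroup.center G) * Nat.card (Subgroup.centralizer ({ψ x} : Set S)) := by
  obtain ⟨k, hk⟩ := hx
  have hxk : x ^ p ^ k = 1 := by rw [← hk, pow_orderOf_eq_one]
  have h1 : Subgroup.centralizer ({x} : Set G) = (Subgroup.centralizer ({ψ x} : Set S)).comap ψ := by
    ext g
    rw [Subgroup.mem_comap, Subgroup.mem_centralizer_singleton_iff, Subgroup.mem_centralizer_singleton_iff]
    constructor
    · intro hg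
      rw [← map_mul, ← map_mul, hg]
    · intro hg
      have h2 : g * x * g⁻¹ = x := eq_of_map_eq h.hp (PSit.not_dvd_ker h hψ) hψ
        ⟨k, by rw [conj_pow, hxk, mul_one, mul_inv_cancel]⟩ ⟨k, hxk⟩ (by
          rw [map_mul, map_mul, map_inv, hg, mul_inv_cancel_right])
      exact mul_inv_eq_iff_eq_mul.1 h2
  rw [Cfsg.Agent.H759.QA.center_eq_ker hψ, h1]
  have h3 : Nat.card ↥((Subgroup.centralizer ({ψ x} : Set S)).comap ψ) * ((Subgroup.centralizer ({ψ x} : Set S)).comap ψ).index =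
      Nat.card ψ.ker * (Nat.card ↥(Subgroup.centralizer ({ψ x} : Set S)) * (Subgroup.centralizer ({ψ x} : Set S)).index) := by
    rw [Subgroup.card_mul_index, Subgroup.card_mul_index, ← Subgroup.card_mul_index ψ.ker, Subgroup.index_ker,
      MonoidHom.range_eq_top.2 hψ.surj, Subgroup.card_top]
  rw [Subgroup.index_comap_of_surjective _ hψ.surj, ← mul_assoc] at h3
  exact Nat.eq_of_mul_eq_mul_right (Nat.pos_of_ne_zero Subgroup.index_ne_zero_of_finite) h3

omit [IsSimpleGroup S] in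
/-- degree bounds for the covers of `S` in the sense of H80 -/
theorem minDeg_of_cover (hψ : IsCover ψ) {B : ℕ} (hB : MinDeg S B) : Cfsg.Agent.H122.MinDeg G B := by
  intro M _ _ _ ρ hρ
  obtain ⟨g, hg⟩ := hρ
  let e : M ≃ₗ[ℂ] (Fin (Module.finrank ℂ M) → ℂ) := (Module.finBasis ℂ M).equivFun
  let ρ' : Representation ℂ G (Fin (Module.finrank ℂ M) → ℂ) :=
    { toFun := fun x => e.conj (ρ x)
      map_one' := by
        rw [map_one]
        exact e.conj_id
      map_mul' := fun x y => by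
        rw [map_mul]
        exact e.conj_comp _ _ }
  refine two_le_of_ne hψ hB ρ' ⟨g, fun h1 => hg ?_⟩
  have h2 : e.conj (ρ g) = e.conj 1 := by
    refine h1.trans ?_
    exact e.conj_id.symm
  exact e.conj.injective h2

/-- `|V| = q ^ d`, `B ≤ d` -/
theorem PSit.exists_dim (h : PSit p q G V) {B : ℕ} (hB : Cfsg.Agent.H122.MinDeg G B) :
    ∃ d : ℕ, Nat.card V = q ^ d ∧ B ≤ d := by
  have hq : Fact q.Prime := ⟨h.hq⟩
  have hne : ∃ (g : G) (v : V), g • v ≠ v := by
    by_contra hno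
    push Not at hno
    have h1 : ∀ g : G, g = 1 := fun g => h.faith g (hno g)
    have h2 : Nat.card G = 1 := by
      rw [Nat.card_eq_one_iff_unique]
      exact ⟨⟨fun a b => (h1 a).trans (h1 b).symm⟩, ⟨1⟩⟩
    have h3 := h.pG
    rw [h2] at h3
    exact h.hp.one_lt.ne' (Nat.dvd_one.1 h3)
  obtain ⟨n, ρ, hn, hρ⟩ := exists_rep_ne h.exp h.qG hne
  refine ⟨n, hn, ?_⟩
  have h1 := hB (Fin n → ℂ) ρ hρ
  rwa [Module.finrank_fin_fun] at h1

end

end Cfsg.Agent.H724.QA
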